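import Mathlib
import Cfsg.Agent.Lib.Helper45.EPStmt
import Cfsg.Agent.Lib.Helper44.NegPairs
import Cfsg.Agent.Lib.Helper10.HypINVOL
import Cfsg.Agent.Lib.Helper34.CWCore

/-!
# S5988 / NEGSQFIXB1 (call by helper45), second seat (helper27)

`q ≡ 3 (mod 4)`, `x * x = -1`: an invariant `W` with `dim W ≡ 0 (mod 4)` is of plus type.
Abstract form: a quadratic space `V` with an isometry `A`, `A² = -1`, over a field in which `-1`
is a nonsquare, has `A`-invariant totally singular subspaces of every dimension `2 s`,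
`4 s ≤ dim V` (Chevalley-Warning on a complement of `T` in `T^⊥`, `Helper34.CWCore.exists_cw`,
and the plane `⟨w, A w⟩`, as in `Helper56.TPSQNEGTS`).  Nondegeneracy of `W` is not used.
-/

set_option autoImplicit false

namespace Cfsg.Agent.Lib.Helper27.EPNEGSQFIXB1

open Module QuadraticMap
open Cfsg.Agent.Lib.Helper44.NegPairs
open Cfsg.Agent.Lib.Helper45.EPStmt
open Cfsg.Agent.Lib.Helper94.OPStmt (P NP FxP NDegP StabP)

universe u

/-- extension step (abstract form of `Helper56.TPSQNEGTS`) -/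
theorem ext_step {F : Type u} [Field F] {V : Type u} [AddCommGroup V] [Module F V]
    [FiniteDimensional F V] (h2 : (2 : F) ≠ 0) (hnsq : ¬ IsSquare (-1 : F))
    (Q : QuadraticForm F V) (A : V →ₗ[F] V) (hAQ : ∀ u, Q (A u) = Q u)
    (hAA : ∀ u, A (A u) = -u) (W : Submodule F V) (hAW : ∀ w ∈ W, A w ∈ W)
    (hQW : ∀ w ∈ W, Q w = 0) (v : V) (hvW : v ∉ W) (hQv' : Q v = 0)
    (hBv' : ∀ u ∈ W, polar Q u v = 0) :
    ∃ W' : Submodule F V, (∀ w ∈ W', A w ∈ W') ∧ (∀ w ∈ W', Q w = 0) ∧
      finrank F ↥W' = finrank F ↥W + 2 := by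
  classical
  have hpol : ∀ u w, polar Q (A u) (A w) = polar Q u w := by
    intro u w
    unfold polar
    rw [← map_add, hAQ, hAQ, hAQ]
  have hQAv : Q (A v) = 0 := by rw [hAQ]; exact hQv'
  have hBvAv : polar Q v (A v) = 0 := by
    have h3 := hpol v (A v)
    rw [hAA, polar_neg_right, polar_comm] at h3
    have h4 : (2 : F) * polar Q v (A v) = 0 := by linear_combination -h3
    exact (mul_eq_zero.mp h4).resolve_left h2
  have hBwAv : ∀ w ∈ W, polar Q w (A v) = 0 := by
    intro w hw
    have h3 := hpol w (A v)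
    rw [hAA, polar_neg_right] at h3
    rw [← h3, hBv' (A w) (hAW w hw), neg_zero]
  -- independence modulo `W`
  have key : ∀ a b : F, a • v + b • A v ∈ W → a = 0 ∧ b = 0 := by
    intro a b hs
    have hAs : a • A v - b • v ∈ W := by
      have h5 := hAW _ hs
      rw [map_add, map_smul, map_smul, hAA] at h5
      have h6 : a • A v - b • v = a • A v + b • -v := by
        rw [smul_neg, sub_eq_add_neg]
      rw [h6]
      exact h5
    have h7 : (a * a + b * b) • v ∈ W := by
      have h8 : (a * a + b * b) • v = a • (a • v + b • A v) - b • (a • A v - b • v) := by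
        module
      rw [h8]
      exact W.sub_mem (W.smul_mem a hs) (W.smul_mem b hAs)
    have hab : a * a + b * b = 0 := by
      by_contra hne
      apply hvW
      have h9 := W.smul_mem (a * a + b * b)⁻¹ h7
      rwa [smul_smul, inv_mul_cancel₀ hne, one_smul] at h9
    have hb : b = 0 := by
      by_contra hb
      apply hnsq
      refine ⟨a / b, ?_⟩
      have h10 : a * a = -(b * b) := by linear_combination hab
      rw [div_mul_div_comm, h10, neg_div, div_self (mul_ne_zero hb hb)]
    refine ⟨?_, hb⟩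
    rw [hb] at hab
    simpa using hab
  obtain ⟨S, hSdef⟩ : ∃ S : Submodule F V, S = Submodule.span F (Set.range ![v, A v]) :=
    ⟨_, rfl⟩
  have hSmem : ∀ y, y ∈ S ↔ ∃ a b : F, a • v + b • A v = y := by
    intro y
    rw [hSdef, Submodule.mem_span_range_iff_exists_fun]
    constructor
    · rintro ⟨c, hc⟩
      refine ⟨c 0, c 1, ?_⟩
      rw [← hc, Fin.sum_univ_two]
      rfl
    · rintro ⟨a, b, hab⟩
      refine ⟨![a, b], ?_⟩
      rw [← hab, Fin.sum_univ_two]
      rfl
  have hli : LinearIndependent F ![v, A v] := by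
    rw [LinearIndependent.pair_iff]
    intro s t hst
    exact key s t (by rw [hst]; exact W.zero_mem)
  have hSdim : finrank F ↥S = 2 := by
    rw [hSdef, finrank_span_eq_card hli, Fintype.card_fin]
  have hinf : W ⊓ S = ⊥ := by
    rw [eq_bot_iff]
    rintro y ⟨hy1, hy2⟩
    obtain ⟨a, b, rfl⟩ := (hSmem y).mp hy2
    obtain ⟨ha, hb⟩ := key a b hy1
    rw [Submodule.mem_bot, ha, hb, zero_smul, zero_smul, add_zero]
  refine ⟨W ⊔ S, ?_, ?_, ?_⟩
  · intro y hy
    obtain ⟨w, hw, s, hs, rfl⟩ := Submodule.mem_sup.mp hy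
    obtain ⟨a, b, rfl⟩ := (hSmem s).mp hs
    rw [map_add, map_add, map_smul, map_smul, hAA]
    apply Submodule.add_mem_sup (hAW w hw)
    rw [hSmem]
    refine ⟨-b, a, ?_⟩
    module
  · intro y hy
    obtain ⟨w, hw, s, hs, rfl⟩ := Submodule.mem_sup.mp hy
    obtain ⟨a, b, rfl⟩ := (hSmem s).mp hs
    have e1 : Q (w + (a • v + b • A v)) = Q w + Q (a • v + b • A v)
        + polar Q w (a • v + b • A v) := QuadraticMap.map_add Q _ _
    have e2 : Q (a • v + b • A v) = Q (a • v) + Q (b • A v)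
        + polar Q (a • v) (b • A v) := QuadraticMap.map_add Q _ _
    have e3 : Q (a • v) = (a * a) • Q v := QuadraticMap.map_smul Q a v
    have e4 : Q (b • A v) = (b * b) • Q (A v) :=
      QuadraticMap.map_smul Q b (A v)
    have e5 : polar Q (a • v) (b • A v) = a • (b • polar Q v (A v)) := by
      rw [QuadraticMap.polar_smul_left, QuadraticMap.polar_smul_right]
    have e6 : polar Q w (a • v + b • A v)
        = a • polar Q w v + b • polar Q w (A v) := by
      rw [QuadraticMap.polar_add_right, QuadraticMap.polar_smul_right,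
        QuadraticMap.polar_smul_right]
    rw [e1, e2, e3, e4, e5, e6, hQW w hw, hQv', hQAv, hBvAv, hBv' w hw, hBwAv w hw]
    simp
  · have h11 := Submodule.finrank_sup_add_finrank_inf_eq W S
    rw [hinf, finrank_bot, hSdim] at h11
    omega

/-- invariant totally singular subspaces of every dimension `2 s`, `4 s ≤ dim V` -/
theorem build {F : Type u} [Field F] [Fintype F] {V : Type u} [AddCommGroup V] [Module F V]
    [FiniteDimensional F V] (hq : Fintype.card F % 4 = 3)
    (Q : QuadraticForm F V) (A : V →ₗ[F] V) (hAQ : ∀ u, Q (A u) = Q u)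
    (hAA : ∀ u, A (A u) = -u) :
    ∀ s : ℕ, 4 * s ≤ finrank F V → ∃ T : Submodule F V, (∀ w ∈ T, A w ∈ T) ∧
      (∀ w ∈ T, Q w = 0) ∧ finrank F ↥T = 2 * s := by
  classical
  have hodd : Odd (Fintype.card F) := Nat.odd_iff.mpr (by omega)
  have h2 : (2 : F) ≠ 0 := Cfsg.Agent.Lib.Helper10.HypINVOL.two_ne_zero_of_odd hodd
  have hnsq : ¬ IsSquare (-1 : F) := by
    rw [FiniteField.isSquare_neg_one_iff]
    omega
  obtain ⟨p, hp⟩ := CharP.exists F
  have := hp
  have : Fact p.Prime := ⟨CharP.char_is_prime F p⟩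
  intro s
  induction s with
  | zero =>
    intro _
    refine ⟨⊥, ?_, ?_, ?_⟩
    · intro w hw
      rw [Submodule.mem_bot] at hw
      subst hw
      simp
    · intro w hw
      rw [Submodule.mem_bot] at hw
      subst hw
      simp
    · simp
  | succ s ih =>
    intro hs
    obtain ⟨T, hT1, hT2, hT3⟩ := ih (by omega)
    have hdim := LinearMap.BilinForm.finrank_add_finrank_orthogonal' (B := polarBilin Q) T
    obtain ⟨C, hC⟩ := Submodule.exists_isCompl T
    have hTR : T ≤ LinearMap.BilinForm.orthogonal (polarBilin Q) T := by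
      intro t ht
      rw [LinearMap.BilinForm.mem_orthogonal_iff]
      intro n hn
      rw [polarBilin_apply_apply]
      unfold polar
      rw [hT2 _ (T.add_mem hn ht), hT2 n hn, hT2 t ht]
      simp
    have hle : LinearMap.BilinForm.orthogonal (polarBilin Q) T ≤ T ⊔ (C ⊓ LinearMap.BilinForm.orthogonal (polarBilin Q) T) := by
      intro r hr
      have hr' : r ∈ T ⊔ C := by rw [hC.sup_eq_top]; exact Submodule.mem_top
      obtain ⟨t, ht, c, hc, rfl⟩ := Submodule.mem_sup.mp hr'
      refine Submodule.add_mem_sup ht ⟨hc, ?_⟩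
      have hc2 : c = (t + c) - t := by abel
      rw [hc2]
      exact Submodule.sub_mem _ hr (hTR ht)
    have hfr1 := Submodule.finrank_mono hle
    have hfr2 := Submodule.finrank_add_le_finrank_add_finrank T
      (C ⊓ LinearMap.BilinForm.orthogonal (polarBilin Q) T)
    have hM : 2 * 1 < finrank F ↥(C ⊓ LinearMap.BilinForm.orthogonal (polarBilin Q) T) := by omega
    obtain ⟨w, hwM, hw0, hw⟩ := Cfsg.Agent.Lib.Helper34.CWCore.exists_cw p
      (fun _ => polarBilin Q) 1 (C ⊓ LinearMap.BilinForm.orthogonal (polarBilin Q) T) hM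
    have hQw : Q w = 0 := by
      have h1 : polarBilin Q w w = 0 := hw 0 (by omega)
      rw [polarBilin_apply_apply] at h1
      have h5 : polar Q w w = 2 * Q w := by
        have e1 : Q (w + w) = (2 * 2) * Q w := by
          have e0 : w + w = (2 : F) • w := by rw [two_smul]
          rw [e0, QuadraticMap.map_smul, smul_eq_mul]
        unfold polar
        rw [e1]
        ring
      rw [h5] at h1
      exact (mul_eq_zero.mp h1).resolve_left h2
    have hwT : w ∉ T := by
      intro hwT
      apply hw0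
      have h6 : w ∈ T ⊓ C := ⟨hwT, hwM.1⟩
      rw [hC.inf_eq_bot] at h6
      exact (Submodule.mem_bot F).mp h6
    have hBw : ∀ u ∈ T, polar Q u w = 0 := by
      intro u hu
      have h7 := (LinearMap.BilinForm.mem_orthogonal_iff.mp hwM.2) u hu
      rw [polarBilin_apply_apply] at h7
      exact h7
    obtain ⟨T', h1, h2', h3⟩ := ext_step h2 hnsq Q A hAQ hAA T hT1 hT2 w hwT hQw hBw
    exact ⟨T', h1, h2', by omega⟩

theorem main : NegSqFixB1.{u} := by
  intro F _ _ hq d x hx hx2 W _ hStab hfin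
  classical
  obtain ⟨A, hAdef⟩ : ∃ A : (P d → F) →ₗ[F] (P d → F),
      A = Matrix.toLin' (x : Matrix (P d) (P d) F) := ⟨_, rfl⟩
  have hAQ : ∀ u, plusQ d F (A u) = plusQ d F u := by
    intro u
    rw [hAdef, Matrix.toLin'_apply]
    exact hx u u
  have hAA : ∀ u, A (A u) = -u := by
    intro u
    rw [hAdef, ← Matrix.toLin'_mul_apply, hx2, Matrix.toLin'_apply, Matrix.neg_mulVec,
      Matrix.one_mulVec]
  have hAW : ∀ w ∈ W, A w ∈ W := by
    intro w hw
    rw [hAdef]
    exact hStab (Submodule.mem_map_of_mem hw)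
  obtain ⟨A', hA'⟩ : ∃ A' : ↥W →ₗ[F] ↥W,
      ∀ w : ↥W, ((A' w : ↥W) : P d → F) = A (w : P d → F) :=
    ⟨A.restrict hAW, fun w => rfl⟩
  obtain ⟨Q', hQ'⟩ : ∃ Q' : QuadraticForm F ↥W,
      ∀ w : ↥W, Q' w = plusQ d F (w : P d → F) :=
    ⟨(plusQ d F).comp W.subtype, fun w => rfl⟩
  have hAQ' : ∀ u, Q' (A' u) = Q' u := by
    intro u
    rw [hQ', hQ', hA', hAQ]
  have hAA' : ∀ u, A' (A' u) = -u := by
    intro u
    apply Subtype.ext
    rw [hA', hA', hAA]
    rfl
  obtain ⟨k, hk⟩ : ∃ k, finrank F ↥W = 4 * k := ⟨finrank F ↥W / 4, by omega⟩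
  obtain ⟨T, hT1, hT2, hT3⟩ := build hq Q' A' hAQ' hAA' k (by omega)
  show ∃ U : Submodule F (P d → F), U ≤ W ∧
    Cfsg.Geo.IsTotallySingularQuad (Cfsg.quadFormPlus d F) U ∧
      2 * Module.finrank F U = Module.finrank F W
  refine ⟨T.map W.subtype, Submodule.map_subtype_le W T, ?_, ?_⟩
  · rintro _ ⟨t, ht, rfl⟩
    have h8 := hT2 t ht
    rw [hQ'] at h8
    exact h8
  · rw [Submodule.finrank_map_subtype_eq]
    omega

end Cfsg.Agent.Lib.Helper27.EPNEGSQFIXB1
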