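import Mathlib
import Cfsg.Prelude.Def_Spor_Conway
import Cfsg.Prelude.Def_Transfer
import Cfsg.Prelude.Def_Classical
import Cfsg.Prelude.Def_Local
import Cfsg.Agent.Lib.Helper27.OzStmt

/-!
Statements of the parts of the proof that the centraliser of a suitable subgroup of order five
of the automorphism group of the Leech lattice, modulo that subgroup and the centre, is a
non-commutative simple group with an involution whose centraliser has generalized Fitting
subgroup extraspecial of order `2 ^ 5` and quotient the commutator subgroup of the orthogonal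
group of minus type in dimension 4 over the field of two elements.

The element `a` of order five commutes with the sign change `t` of the earlier files; the
homomorphism `φ` from the centraliser of `t` to the orthogonal group of dimension 8 sends `a` to
the matrix of code `acode`, which has no fixed vector; the centraliser of that matrix has order
`300`.
-/

set_option autoImplicit false

namespace Cfsg.Agent.Lib.Helper27.JzStmt

open Cfsg Cfsg.Agent.Lib.Helper27.OzStmt

/-- the alternating group of degree five -/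
abbrev A5 : Type := ↥(alternatingGroup (Fin 5))

/-- the commutator subgroup of the orthogonal group of minus type in dimension 4 over the field
of two elements -/
abbrev Om4 : Type := ↥(Cfsg.Omega (ZMod 2) (Cfsg.quadFormMinus 1 (ZMod 2) 1 1))

/-- code of the matrix of the element of order five -/
def acode : ℕ := 252763452575417154

/-- codes of the matrices of two elements commuting with it -/
def xcode : ℕ := 7366723289938923271

/-- second code -/
def ycode : ℕ := 7012898963126508134

/-! ### Pieces in the orthogonal group of dimension 8 -/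

/-- (piece CENT) The centraliser of the matrix of code `acode` in the orthogonal group has at
most `300` elements. -/
def Cent : Prop :=
  ∀ x : O8, ((x : Matrix.GeneralLinearGroup I8 (ZMod 2)) : M8) = matOf acode →
    Nat.card ↥(Subgroup.centralizer ({x} : Set O8)) ≤ 300

/-- (piece SMALL) Groups of order less than `60` are solvable. -/
def Small : Prop :=
  ∀ (X : Type) [Group X] [Finite X], Nat.card X < 60 → Group.IsSolvable X

/-- (piece RECOG : `Small → Recog`) A group of order at most `300` with a normal subgroup `N` of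
order `5`, containing two elements `x`, `y` with `x` outside `N`, each of which is modulo `N` a
commutator of two elements of the subgroup they generate: the quotient by `N` is the alternating
group of degree five. -/
def Recog : Prop :=
  ∀ (Y : Type) [Group Y] [Finite Y] (N : Subgroup Y) [N.Normal],
    Nat.card Y ≤ 300 → Nat.card ↥N = 5 →
    (∃ x y u1 v1 u2 v2 : Y, x ∉ N ∧
      u1 ∈ Subgroup.closure ({x, y} : Set Y) ∧ v1 ∈ Subgroup.closure ({x, y} : Set Y) ∧
      u2 ∈ Subgroup.closure ({x, y} : Set Y) ∧ v2 ∈ Subgroup.closure ({x, y} : Set Y) ∧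
      x⁻¹ * (u1 * v1 * u1⁻¹ * v1⁻¹) ∈ N ∧ y⁻¹ * (u2 * v2 * u2⁻¹ * v2⁻¹) ∈ N) →
    Nonempty (Y ⧸ N ≃* A5)

/-- (piece A5M : `Cent → Recog → A5M`) A subgroup of the orthogonal group containing the three
matrices and centralising the first: modulo the powers of the first it is the alternating group
of degree five. -/
def A5M : Prop :=
  ∀ (Y : Subgroup O8) (m x y : O8),
    ((m : Matrix.GeneralLinearGroup I8 (ZMod 2)) : M8) = matOf acode →
    ((x : Matrix.GeneralLinearGroup I8 (ZMod 2)) : M8) = matOf xcode →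
    ((y : Matrix.GeneralLinearGroup I8 (ZMod 2)) : M8) = matOf ycode →
    m ∈ Y → x ∈ Y → y ∈ Y → (∀ g ∈ Y, g * m = m * g) →
    ∃ (N : Subgroup ↥Y) (_ : N.Normal), (∀ g : ↥Y, g ∈ N ↔ (g : O8) ∈ Subgroup.zpowers m) ∧
      Nonempty (↥Y ⧸ N ≃* A5)

/-- (piece OM4) The commutator subgroup of the orthogonal group of minus type in dimension 4
over the field of two elements is the alternating group of degree five. -/
def OM4 : Prop := Nonempty (A5 ≃* Om4)

/-! ### Pieces in the situation of the centraliser of the sign change -/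

/-- (piece CK : `OFacts → CK`) In the situation `Ctx`, with a commutator of an element of the
centraliser of `t` with an element of `K` that is not central in `K`: an element of the
centraliser of `t` commuting with all of `K` lies in the kernel of `φ`. -/
def CK : Prop :=
  ∀ (A : Type) [Group A] [Finite A] (t n : A) (K : Subgroup A)
    (φ : ↥(Subgroup.centralizer ({t} : Set A)) →* O8), Ctx A t n K φ →
    (∃ g : A, g * t = t * g ∧ ∃ k ∈ K, ∃ k' ∈ K,
      (g * k * g⁻¹ * k⁻¹) * k' ≠ k' * (g * k * g⁻¹ * k⁻¹)) →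
    ∀ c : ↥(Subgroup.centralizer ({t} : Set A)), (∀ k ∈ K, (c : A) * k = k * (c : A)) → φ c = 1

/-- (piece CNT) An element `a` with `a ^ 5 = 1` normalising a subgroup `K` of order `2 ^ 9`,
not centralising it, and commuting with three different elements `1`, `t`, `k` of it: the
centraliser of `a` in `K` has order `2 ^ 5`. -/
def Cnt : Prop :=
  ∀ (A : Type) [Group A] (K : Subgroup A) (a t : A), Nat.card ↥K = 2 ^ 9 → a ^ 5 = 1 →
    (∀ k ∈ K, a * k * a⁻¹ ∈ K) → (∃ k ∈ K, a * k ≠ k * a) →
    t ∈ K → a * t = t * a → t ≠ 1 →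
    (∃ k ∈ K, a * k = k * a ∧ k ≠ 1 ∧ k ≠ t) →
    Nat.card ↥(K ⊓ Subgroup.centralizer ({a} : Set A)) = 2 ^ 5

/-- (piece XS5) An element `a` with `a ^ 5 = 1` normalising an extraspecial subgroup `K` of
order `2 ^ 9` with centraliser of order `2 ^ 5` in `K`: that centraliser is extraspecial. -/
def XS5 : Prop :=
  ∀ (A : Type) [Group A] (K : Subgroup A) (a : A), IsExtraspecial 2 ↥K → Nat.card ↥K = 2 ^ 9 →
    a ^ 5 = 1 → (∀ k ∈ K, a * k * a⁻¹ ∈ K) →
    Nat.card ↥(K ⊓ Subgroup.centralizer ({a} : Set A)) = 2 ^ 5 →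
    IsExtraspecial 2 ↥(K ⊓ Subgroup.centralizer ({a} : Set A))

/-- The facts about the element `a` of order five in the situation `Ctx`. -/
structure JData (G : Type) [Group G] (t n a : G) (K : Subgroup G)
    (φ : ↥(Subgroup.centralizer ({t} : Set G)) →* O8) : Prop where
  ctx : Ctx G t n K φ
  nc : ∃ g : G, g * t = t * g ∧ ∃ k ∈ K, ∃ k' ∈ K,
      (g * k * g⁻¹ * k⁻¹) * k' ≠ k' * (g * k * g⁻¹ * k⁻¹)
  a5 : a ^ 5 = 1
  a1 : a ≠ 1
  a_t : a * t = t * a
  am : ∃ x : ↥(Subgroup.centralizer ({t} : Set G)), (x : G) = a ∧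
      ((φ x : Matrix.GeneralLinearGroup I8 (ZMod 2)) : M8) = matOf acode
  xm : ∃ x : ↥(Subgroup.centralizer ({t} : Set G)), (x : G) * a = a * (x : G) ∧
      ((φ x : Matrix.GeneralLinearGroup I8 (ZMod 2)) : M8) = matOf xcode
  ym : ∃ x : ↥(Subgroup.centralizer ({t} : Set G)), (x : G) * a = a * (x : G) ∧
      ((φ x : Matrix.GeneralLinearGroup I8 (ZMod 2)) : M8) = matOf ycode
  fus : ∃ g h : G, g * a = a * g ∧ h * a = a * h ∧ h * t = t * h ∧
      (∃ x : ↥(Subgroup.centralizer ({t} : Set G)), (x : G) = g * t * g⁻¹ ∧ φ x = 1) ∧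
      (g * t * g⁻¹ * (h * (g * t * g⁻¹) * h⁻¹)) * (g * t * g⁻¹ * (h * (g * t * g⁻¹) * h⁻¹)) = t

/-! ### The section: the centraliser of `a` modulo `a` and the centre -/

section sect

variable {G : Type} [Group G]

/-- the centraliser of the subgroup generated by `a` -/
abbrev MA (a : G) : Subgroup G :=
  Subgroup.centralizer ((Subgroup.zpowers a : Subgroup G) : Set G)

/-- the subgroup generated by `a` and the centre, inside the centraliser -/
abbrev ZA (a : G) : Subgroup ↥(MA a) :=
  (Subgroup.zpowers a ⊔ Subgroup.center G).subgroupOf (MA a)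

theorem mem_MA {a g : G} (h : g * a = a * g) : g ∈ MA a := by
  rw [Subgroup.mem_centralizer_iff]
  intro x hx
  obtain ⟨k, rfl⟩ := Subgroup.mem_zpowers_iff.mp hx
  exact ((Commute.zpow_right (show Commute g a from h) k).eq).symm

/-- an element commuting with `a`, as an element of the centraliser -/
def toMA (a g : G) (h : g * a = a * g) : ↥(MA a) := ⟨g, mem_MA h⟩

/-- the centraliser of `a` in `K`, inside the centraliser of `a` -/
abbrev QA (a : G) (K : Subgroup G) : Subgroup ↥(MA a) :=
  (K ⊓ Subgroup.centralizer ({a} : Set G)).subgroupOf (MA a)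

end sect

/-- The situation in a group `M` with a central subgroup `Z0`: an involution `t` outside `Z0`
whose conjugates in `t Z0` are `t` only, and an extraspecial subgroup `Q` of order `2 ^ 5` of
the centraliser of `t`, normalised by it, containing `t` and meeting `Z0` trivially. -/
structure SCtx (M : Type) [Group M] (Z0 : Subgroup M) (t : M) (Q : Subgroup M) : Prop where
  central : ∀ z ∈ Z0, ∀ x : M, z * x = x * z
  t_sq : t * t = 1
  t_nmem : t ∉ Z0
  nofus : ∀ g : M, g * t * g⁻¹ * t⁻¹ ∈ Z0 → g * t = t * g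
  Q_comm : ∀ q ∈ Q, q * t = t * q
  Q_norm : ∀ h : M, h * t = t * h → ∀ q ∈ Q, h * q * h⁻¹ ∈ Q
  Q_meet : ∀ q ∈ Q, q ∈ Z0 → q = 1
  xs : IsExtraspecial 2 ↥Q
  card_Q : Nat.card ↥Q = 2 ^ 5
  t_mem : t ∈ Q

/-- the image of the involution in the quotient -/
def zb (M : Type) [Group M] (Z0 : Subgroup M) [Z0.Normal] (t : M) : M ⧸ Z0 :=
  QuotientGroup.mk' Z0 t

/-- its centraliser -/
abbrev Cb (M : Type) [Group M] (Z0 : Subgroup M) [Z0.Normal] (t : M) : Subgroup (M ⧸ Z0) :=
  Subgroup.centralizer ({zb M Z0 t} : Set (M ⧸ Z0))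

/-- the image of `Q` in the centraliser -/
def Qb (M : Type) [Group M] (Z0 : Subgroup M) [Z0.Normal] (t : M) (Q : Subgroup M) :
    Subgroup ↥(Cb M Z0 t) :=
  (Q.map (QuotientGroup.mk' Z0)).subgroupOf (Cb M Z0 t)

/-- (piece GLOC1 : `CK → Cnt → XS5 → GLoc1`) The situation `SCtx` holds in the centraliser of
`a`. -/
def GLoc1 : Prop :=
  ∀ (G : Type) [Group G] [Finite G] (t n a : G) (K : Subgroup G)
    (φ : ↥(Subgroup.centralizer ({t} : Set G)) →* O8) (ha : t * a = a * t),
    JData G t n a K φ → SCtx ↥(MA a) (ZA a) (toMA a t ha) (QA a K)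

/-- (piece GLOC2 : `A5M → GLoc2`) The centraliser of `t` in the centraliser of `a` maps onto the
alternating group of degree five with kernel the product of the centraliser of `a` in `K` and
the subgroup generated by `a` and the centre. -/
def GLoc2 : Prop :=
  ∀ (G : Type) [Group G] [Finite G] (t n a : G) (K : Subgroup G)
    (φ : ↥(Subgroup.centralizer ({t} : Set G)) →* O8) (ha : t * a = a * t),
    JData G t n a K φ →
    ∃ ψ : ↥(Subgroup.centralizer ({toMA a t ha} : Set ↥(MA a))) →* A5, Function.Surjective ψ ∧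
      ∀ h : ↥(Subgroup.centralizer ({toMA a t ha} : Set ↥(MA a))),
        ψ h = 1 ↔ ∃ q ∈ QA a K, ∃ z ∈ ZA a, (h : ↥(MA a)) = q * z

/-- (piece GLOC3) The two witnesses in the centraliser of `a`: a commutator of an element of the
centraliser of `t` with an element of `Q` that is not central in `Q`, and a conjugate of `t`
which is the product of an element of `Q` other than `t` and an element of `Z0`. -/
def GLoc3 : Prop :=
  ∀ (G : Type) [Group G] [Finite G] (t n a : G) (K : Subgroup G)
    (φ : ↥(Subgroup.centralizer ({t} : Set G)) →* O8) (ha : t * a = a * t),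
    JData G t n a K φ →
    (∃ h : ↥(MA a), h * toMA a t ha = toMA a t ha * h ∧ ∃ k ∈ QA a K, ∃ k' ∈ QA a K,
      (h * k * h⁻¹ * k⁻¹) * k' ≠ k' * (h * k * h⁻¹ * k⁻¹)) ∧
    (∃ g : ↥(MA a), ∃ q ∈ QA a K, ∃ z ∈ ZA a,
      g * toMA a t ha * g⁻¹ = q * z ∧ q ≠ toMA a t ha)

/-- (piece SQ) The image of the involution has order two; the image of `Q` is a normal
extraspecial subgroup of order `2 ^ 5` of its centraliser. -/
def SQ : Prop :=
  ∀ (M : Type) [Group M] [Finite M] (Z0 : Subgroup M) [Z0.Normal] (t : M) (Q : Subgroup M),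
    SCtx M Z0 t Q →
    orderOf (zb M Z0 t) = 2 ∧ (Qb M Z0 t Q).Normal ∧ IsExtraspecial 2 ↥(Qb M Z0 t Q) ∧
      Nat.card ↥(Qb M Z0 t Q) = 2 ^ 5

/-- (piece SISO) A homomorphism from the centraliser of `t` onto `X` with kernel `Q Z0` gives
an isomorphism from the quotient of the centraliser of the image of `t` by the image of `Q`. -/
def SIso : Prop :=
  ∀ (M : Type) [Group M] [Finite M] (Z0 : Subgroup M) [Z0.Normal] (t : M) (Q : Subgroup M)
    (X : Type) [Group X], SCtx M Z0 t Q →
    ∀ ψ : ↥(Subgroup.centralizer ({t} : Set M)) →* X, Function.Surjective ψ →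
    (∀ h : ↥(Subgroup.centralizer ({t} : Set M)), ψ h = 1 ↔ ∃ q ∈ Q, ∃ z ∈ Z0, (h : M) = q * z) →
    ∀ (_ : (Qb M Z0 t Q).Normal), Nonempty (↥(Cb M Z0 t) ⧸ Qb M Z0 t Q ≃* X)

/-- (piece SWIT) The two witnesses pass to the quotient. -/
def SWit : Prop :=
  ∀ (M : Type) [Group M] [Finite M] (Z0 : Subgroup M) [Z0.Normal] (t : M) (Q : Subgroup M),
    SCtx M Z0 t Q →
    (∃ h : M, h * t = t * h ∧ ∃ k ∈ Q, ∃ k' ∈ Q,
      (h * k * h⁻¹ * k⁻¹) * k' ≠ k' * (h * k * h⁻¹ * k⁻¹)) →
    (∃ g : M, ∃ q ∈ Q, ∃ z ∈ Z0, g * t * g⁻¹ = q * z ∧ q ≠ t) →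
    (∃ g : ↥(Cb M Z0 t), ∃ k ∈ Qb M Z0 t Q, ∃ k' ∈ Qb M Z0 t Q,
      (g * k * g⁻¹ * k⁻¹) * k' ≠ k' * (g * k * g⁻¹ * k⁻¹)) ∧
    (∃ g : M ⧸ Z0,
      (∃ hq : g * zb M Z0 t * g⁻¹ ∈ Cb M Z0 t,
        (⟨g * zb M Z0 t * g⁻¹, hq⟩ : ↥(Cb M Z0 t)) ∈ Qb M Z0 t Q) ∧
      g * zb M Z0 t * g⁻¹ ≠ zb M Z0 t)

/-! ### The generalized Fitting subgroup and simplicity -/

/-- (piece FSTAR2) A finite group with a normal extraspecial 2-subgroup `Q`, with quotient the
alternating group of degree five, in which some commutator of an element of the group with an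
element of `Q` is not central in `Q`, has generalized Fitting subgroup `Q`, and `Q` contains its
centraliser. -/
def FStar2 : Prop :=
  ∀ (C : Type) [Group C] [Finite C] (Q : Subgroup C) [Q.Normal],
    IsExtraspecial 2 ↥Q → Nonempty (C ⧸ Q ≃* A5) →
    (∃ g : C, ∃ k ∈ Q, ∃ k' ∈ Q, (g * k * g⁻¹ * k⁻¹) * k' ≠ k' * (g * k * g⁻¹ * k⁻¹)) →
    Cfsg.generalizedFittingSubgroup C = Q ∧ Subgroup.centralizer (Q : Set C) ≤ Q

/-- An involution `z` of a group `S` and a subgroup `Q` of order `2 ^ 5` of its centraliser,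
normalised by it, containing its own centraliser in the centraliser of `z`, with centre
`{1, z}` and all commutators in `{1, z}`. -/
structure Flat (S : Type) [Group S] (z : S) (Q : Subgroup S) : Prop where
  z_sq : z * z = 1
  z_ne : z ≠ 1
  z_mem : z ∈ Q
  Q_comm : ∀ q ∈ Q, q * z = z * q
  Q_norm : ∀ c : S, c * z = z * c → ∀ q ∈ Q, c * q * c⁻¹ ∈ Q
  card_Q : Nat.card ↥Q = 2 ^ 5
  cen_Q : ∀ q ∈ Q, (∀ q' ∈ Q, q * q' = q' * q) → q = 1 ∨ q = z
  comm_Q : ∀ q ∈ Q, ∀ q' ∈ Q, q * q' * q⁻¹ * q'⁻¹ = 1 ∨ q * q' * q⁻¹ * q'⁻¹ = z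
  self_c : ∀ c : S, c * z = z * c → (∀ q ∈ Q, c * q = q * c) → c ∈ Q

/-- (piece SA) A normal subgroup meeting the centraliser of `z` trivially is trivial, when some
conjugate of `z` other than `z` lies in `Q`. -/
def SA : Prop :=
  ∀ (S : Type) [Group S] [Finite S] (z : S) (Q : Subgroup S), Flat S z Q →
    (∃ g : S, g * z * g⁻¹ ∈ Q ∧ g * z * g⁻¹ ≠ z) →
    ∀ N : Subgroup S, N.Normal → (∀ x ∈ N, x * z = z * x → x = 1) → N = ⊥

/-- (piece SB) A normal subgroup meeting the centraliser of `z` non-trivially contains `z`. -/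
def SB : Prop :=
  ∀ (S : Type) [Group S] [Finite S] (z : S) (Q : Subgroup S), Flat S z Q →
    ∀ N : Subgroup S, N.Normal → (∃ x ∈ N, x ≠ 1 ∧ x * z = z * x) → z ∈ N

/-- (piece SC) When `5` divides the order of the centraliser of `z`, a normal subgroup
containing `z` and another non-trivial element of `Q` contains `Q`. -/
def SC : Prop :=
  ∀ (S : Type) [Group S] [Finite S] (z : S) (Q : Subgroup S), Flat S z Q →
    5 ∣ Nat.card ↥(Subgroup.centralizer ({z} : Set S)) →
    ∀ N : Subgroup S, N.Normal → z ∈ N → (∃ x ∈ N, x ∈ Q ∧ x ≠ 1 ∧ x ≠ z) → Q ≤ N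

/-- (piece SL) In a subgroup `N` containing `Q` in which the centraliser of `z` is `Q`, no
conjugate of `z` under `N` other than `z` lies in `Q`. -/
def SL : Prop :=
  ∀ (S : Type) [Group S] [Finite S] (z : S) (Q : Subgroup S), Flat S z Q →
    ∀ N : Subgroup S, Q ≤ N → (∀ x ∈ N, x * z = z * x → x ∈ Q) →
    ∀ n ∈ N, n * z * n⁻¹ ∈ Q → n * z * n⁻¹ = z

/-- (piece SD : `SL → SD`) When the only subgroups between `Q` and the centraliser of `z`
normalised by that centraliser are the two ends, and some conjugate of `z` other than `z` lies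
in `Q`, a normal subgroup containing `Q` is the whole group. -/
def SD : Prop :=
  ∀ (S : Type) [Group S] [Finite S] (z : S) (Q : Subgroup S), Flat S z Q →
    (∀ L : Subgroup S, Q ≤ L → L ≤ Subgroup.centralizer ({z} : Set S) →
      (∀ c : S, c * z = z * c → ∀ m ∈ L, c * m * c⁻¹ ∈ L) →
      L = Q ∨ L = Subgroup.centralizer ({z} : Set S)) →
    (∃ g : S, g * z * g⁻¹ ∈ Q ∧ g * z * g⁻¹ ≠ z) →
    ∀ N : Subgroup S, N.Normal → Q ≤ N → N = ⊤

/-- (piece SIMPLE : `SA → SB → SC → SD → Simple`) A finite group with an involution `z` whose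
centraliser has a normal extraspecial subgroup `Q` of order `2 ^ 5` containing its centraliser,
with quotient the alternating group of degree five, and a conjugate of `z` other than `z` in
`Q`, is simple. -/
def Simple : Prop :=
  ∀ (S : Type) [Group S] [Finite S] (z : S), orderOf z = 2 →
    ∀ (Q : Subgroup ↥(Subgroup.centralizer ({z} : Set S))) [Q.Normal],
      Subgroup.centralizer (Q : Set ↥(Subgroup.centralizer ({z} : Set S))) ≤ Q →
      IsExtraspecial 2 ↥Q → Nat.card ↥Q = 2 ^ 5 →
      Nonempty (↥(Subgroup.centralizer ({z} : Set S)) ⧸ Q ≃* A5) →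
      (∃ g : S, (∃ hq : g * z * g⁻¹ ∈ Subgroup.centralizer ({z} : Set S),
          (⟨g * z * g⁻¹, hq⟩ : ↥(Subgroup.centralizer ({z} : Set S))) ∈ Q) ∧ g * z * g⁻¹ ≠ z) →
      IsSimpleGroup S

/-! ### The conclusion -/

/-- the statement, for a group `G` in place of the automorphism group of the lattice -/
def Concl (G : Type) [Group G] : Prop :=
  ∃ A : Subgroup G, Nat.card A = 5 ∧ ∃ (hn : ((A ⊔ Subgroup.center G).subgroupOf (Subgroup.centralizer (A : Set G))).Normal), ∃ (S : Type) (_ : Group S) (_ : Finite S), Nonempty (S ≃* ↥(Subgroup.centralizer (A : Set G)) ⧸ (A ⊔ Subgroup.center G).subgroupOf (Subgroup.centralizer (A : Set G))) ∧ IsSimpleGroup S ∧ ¬ IsMulCommutative S ∧ ∃ z : S, orderOf z = 2 ∧ ∃ (Q : Subgroup (Subgroup.centralizer ({z} : Set S))) (_ : Q.Normal), Cfsg.generalizedFittingSubgroup (Subgroup.centralizer ({z} : Set S)) = Q ∧ Cfsg.IsExtraspecial 2 Q ∧ Nat.card Q = 2 ^ 5 ∧ Nonempty ((Subgroup.centralizer ({z} : Set S)) ⧸ Q ≃* Cfsg.Omega (ZMod 2) (Cfsg.quadFormMinus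 1 (ZMod 2) 1 1)) ∧ ∃ g : S, (∃ hq : g * z * g⁻¹ ∈ Subgroup.centralizer ({z} : Set S), (⟨g * z * g⁻¹, hq⟩ : Subgroup.centralizer ({z} : Set S)) ∈ Q) ∧ g * z * g⁻¹ ≠ z

/-- (piece FINAL : `GLoc1 → GLoc2 → GLoc3 → SQ → SIso → SWit → FStar2 → Simple → OM4 → Final`)
The facts about `a` give the conclusion. -/
def Final : Prop :=
  ∀ (G : Type) [Group G] [Finite G] (t n a : G) (K : Subgroup G)
    (φ : ↥(Subgroup.centralizer ({t} : Set G)) →* O8), JData G t n a K φ → Concl G

end Cfsg.Agent.Lib.Helper27.JzStmt
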