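import Cfsg.Agent.Lib.Helper27.Coset

set_option autoImplicit false
open scoped Pointwise
open Cfsg

namespace Cfsg.Agent.Lib.Helper27.Sub3

open Cfsg.Agent.Lib.Helper27.Bits Cfsg.Agent.Lib.Helper27.Golay Cfsg.Agent.Lib.Helper27.Fast
  Cfsg.Agent.Lib.Helper27.Coset

/-! ### weights of unions -/

theorem pcF_or (a b : ℕ) : pcF (a ||| b) + pcF (a &&& b) = pcF a + pcF b := by
  rw [← card_setOf_F, ← card_setOf_F, ← card_setOf_F, ← card_setOf_F, setOf_or, setOf_and]
  exact Finset.card_union_add_card_inter _ _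

theorem disjoint_iff_pcF (a b : ℕ) : Disjoint (fsOf a) (fsOf b) ↔ pcF (a &&& b) = 0 := by
  rw [Finset.disjoint_iff_inter_eq_empty, ← setOf_and, ← Finset.card_eq_zero, card_setOf_F]

theorem pt_inj {i j : ℕ} (hi : i < 24) (hj : j < 24) (h : pt i = pt j) : i = j := by
  rw [← idx_pt i hi, ← idx_pt j hj, h]

/-! ### triples -/

/-- the mask of the triple coded by `c` -/
def mask3 (c : ℕ) : ℕ := 2 ^ (c % 24) ||| 2 ^ (c / 24 % 24) ||| 2 ^ (c / 576)

/-- `c` codes an increasing triple -/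
def sorted3 (c : ℕ) : Bool := Nat.blt (c % 24) (c / 24 % 24) && Nat.blt (c / 24 % 24) (c / 576)

theorem sorted3_iff (c : ℕ) : sorted3 c = true ↔ c % 24 < c / 24 % 24 ∧ c / 24 % 24 < c / 576 := by
  simp [sorted3]

theorem setOf_mask3 {c : ℕ} (hc : c < 13824) :
    fsOf (mask3 c) = {pt (c % 24), pt (c / 24 % 24), pt (c / 576)} :=
  setOf_three _ _ _ (Nat.mod_lt _ (by norm_num)) (Nat.mod_lt _ (by norm_num)) (by omega)

theorem mask3_lt {c : ℕ} (hc : c < 13824) : mask3 c < 2 ^ 24 :=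
  three_lt _ _ _ (Nat.mod_lt _ (by norm_num)) (Nat.mod_lt _ (by norm_num)) (by omega)

theorem card_mask3 {c : ℕ} (hc : c < 13824) (hs : sorted3 c = true) : (fsOf (mask3 c)).card = 3 := by
  rw [sorted3_iff] at hs
  rw [setOf_mask3 hc]
  have h1 : c % 24 < 24 := Nat.mod_lt _ (by norm_num)
  have h2 : c / 24 % 24 < 24 := Nat.mod_lt _ (by norm_num)
  have h3 : c / 576 < 24 := by omega
  apply Finset.card_eq_three.mpr
  refine ⟨_, _, _, ?_, ?_, ?_, rfl⟩
  · intro h; have := pt_inj h1 h2 h; omega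
  · intro h; have := pt_inj h1 h3 h; omega
  · intro h; have := pt_inj h2 h3 h; omega

theorem pcF_mask3 {c : ℕ} (hc : c < 13824) (hs : sorted3 c = true) : pcF (mask3 c) = 3 := by
  rw [← card_setOf_F, card_mask3 hc hs]

theorem exists_code3 (U : Finset GolayPt) (hU : U.card = 3) :
    ∃ c < 13824, sorted3 c = true ∧ fsOf (mask3 c) = U := by
  obtain ⟨x, y, z, hxy, hxz, hyz, rfl⟩ := Finset.card_eq_three.mp hU
  have key : ∀ i j k : ℕ, i < j → j < k → k < 24 →
      ∃ c < 13824, sorted3 c = true ∧ fsOf (mask3 c) = {pt i, pt j, pt k} := by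
    intro i j k hij hjk hk
    have h1 : (i + 24 * j + 576 * k) % 24 = i := by omega
    have h2 : (i + 24 * j + 576 * k) / 24 % 24 = j := by omega
    have h3 : (i + 24 * j + 576 * k) / 576 = k := by omega
    refine ⟨i + 24 * j + 576 * k, by omega, ?_, ?_⟩
    · rw [sorted3_iff, h1, h2, h3]
      exact ⟨hij, hjk⟩
    · rw [setOf_mask3 (by omega), h1, h2, h3]
  have fin : ∀ a b c : GolayPt, idx a < idx b → idx b < idx c →
      ({a, b, c} : Finset GolayPt) = {x, y, z} →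
      ∃ c < 13824, sorted3 c = true ∧ fsOf (mask3 c) = {x, y, z} := by
    intro a b c hab hbc he
    obtain ⟨n, hn, hs, hf⟩ := key (idx a) (idx b) (idx c) hab hbc (idx_lt c)
    rw [pt_idx, pt_idx, pt_idx, he] at hf
    exact ⟨n, hn, hs, hf⟩
  have hxy' : idx x ≠ idx y := fun h => hxy (idx_injective h)
  have hxz' : idx x ≠ idx z := fun h => hxz (idx_injective h)
  have hyz' : idx y ≠ idx z := fun h => hyz (idx_injective h)
  rcases Nat.lt_or_gt_of_ne hxy' with h1 | h1 <;> rcases Nat.lt_or_gt_of_ne hxz' with h2 | h2 <;>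
    rcases Nat.lt_or_gt_of_ne hyz' with h3 | h3
  · exact fin x y z h1 h3 rfl
  · exact fin x z y h2 h3 (by ext w; simp only [Finset.mem_insert, Finset.mem_singleton]; tauto)
  · omega
  · exact fin z x y h2 h1 (by ext w; simp only [Finset.mem_insert, Finset.mem_singleton]; tauto)
  · exact fin y x z h1 h2 (by ext w; simp only [Finset.mem_insert, Finset.mem_singleton]; tauto)
  · omega
  · exact fin y z x h3 h2 (by ext w; simp only [Finset.mem_insert, Finset.mem_singleton]; tauto)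
  · exact fin z y x h3 h1 (by ext w; simp only [Finset.mem_insert, Finset.mem_singleton]; tauto)

theorem code3_inj {c d : ℕ} (hc : c < 13824) (hd : d < 13824) (sc : sorted3 c = true)
    (sd : sorted3 d = true) (h : fsOf (mask3 c) = fsOf (mask3 d)) : c = d := by
  rw [setOf_mask3 hc, setOf_mask3 hd] at h
  rw [sorted3_iff] at sc sd
  have a1 : c % 24 < 24 := Nat.mod_lt _ (by norm_num)
  have a2 : c / 24 % 24 < 24 := Nat.mod_lt _ (by norm_num)
  have a3 : c / 576 < 24 := by omega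
  have b1 : d % 24 < 24 := Nat.mod_lt _ (by norm_num)
  have b2 : d / 24 % 24 < 24 := Nat.mod_lt _ (by norm_num)
  have b3 : d / 576 < 24 := by omega
  have m : ∀ i i1 i2 i3 : ℕ, i < 24 → i1 < 24 → i2 < 24 → i3 < 24 →
      pt i ∈ ({pt i1, pt i2, pt i3} : Finset GolayPt) → i = i1 ∨ i = i2 ∨ i = i3 := by
    intro i i1 i2 i3 hi h1 h2 h3 hm
    simp only [Finset.mem_insert, Finset.mem_singleton] at hm
    rcases hm with e | e | e
    · exact Or.inl (pt_inj hi h1 e)
    · exact Or.inr (Or.inl (pt_inj hi h2 e))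
    · exact Or.inr (Or.inr (pt_inj hi h3 e))
  have e1 := m _ _ _ _ a1 b1 b2 b3 (h ▸ by simp)
  have e2 := m _ _ _ _ a2 b1 b2 b3 (h ▸ by simp)
  have e3 := m _ _ _ _ a3 b1 b2 b3 (h ▸ by simp)
  have f1 := m _ _ _ _ b1 a1 a2 a3 (h.symm ▸ by simp)
  have f2 := m _ _ _ _ b2 a1 a2 a3 (h.symm ▸ by simp)
  have f3 := m _ _ _ _ b3 a1 a2 a3 (h.symm ▸ by simp)
  have g1 : c % 24 = d % 24 := by omega
  have g3 : c / 576 = d / 576 := by omega
  have g2 : c / 24 % 24 = d / 24 % 24 := by omega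
  omega

theorem ncard_three (Q : Finset GolayPt → Prop) (q : ℕ → Bool)
    (hq : ∀ c < 13824, sorted3 c = true → (Q (fsOf (mask3 c)) ↔ q c = true)) :
    {U : Finset GolayPt | U.card = 3 ∧ Q U}.ncard = countB 13824 (fun c => sorted3 c && q c) := by
  have h1 : {U : Finset GolayPt | U.card = 3 ∧ Q U} = (fun c => fsOf (mask3 c)) ''
      (((Finset.range 13824).filter (fun c => (sorted3 c && q c) = true) : Finset ℕ) : Set ℕ) := by
    ext s
    simp only [Set.mem_setOf_eq, Set.mem_image, Finset.coe_filter, Finset.mem_range,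
      Bool.and_eq_true]
    constructor
    · rintro ⟨hs, hQ⟩
      obtain ⟨c, hc, hsc, rfl⟩ := exists_code3 s hs
      exact ⟨c, ⟨hc, hsc, (hq c hc hsc).mp hQ⟩, rfl⟩
    · rintro ⟨c, ⟨hc, hsc, hqc⟩, rfl⟩
      exact ⟨card_mask3 hc hsc, (hq c hc hsc).mpr hqc⟩
  rw [h1, Set.ncard_image_of_injOn, Set.ncard_coe_finset, countB_eq]
  intro c hc d hd h
  simp only [Finset.coe_filter, Finset.mem_range, Set.mem_setOf_eq, Bool.and_eq_true] at hc hd
  exact code3_inj hc.1 hd.1 hc.2.1 hd.2.1 h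

/-! ### pairs -/

/-- the mask of the pair coded by `c` -/
def mask2 (c : ℕ) : ℕ := 2 ^ (c % 24) ||| 2 ^ (c / 24)

/-- `c` codes an increasing pair -/
def sorted2 (c : ℕ) : Bool := Nat.blt (c % 24) (c / 24)

theorem sorted2_iff (c : ℕ) : sorted2 c = true ↔ c % 24 < c / 24 := by
  simp [sorted2]

theorem setOf_two (i j : ℕ) (hi : i < 24) (hj : j < 24) :
    fsOf (2 ^ i ||| 2 ^ j) = {pt i, pt j} := by
  rw [setOf_or, setOf_two_pow i hi, setOf_two_pow j hj]
  ext x
  simp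

theorem setOf_mask2 {c : ℕ} (hc : c < 576) : fsOf (mask2 c) = {pt (c % 24), pt (c / 24)} :=
  setOf_two _ _ (Nat.mod_lt _ (by norm_num)) (by omega)

theorem mask2_lt {c : ℕ} (hc : c < 576) : mask2 c < 2 ^ 24 :=
  Nat.or_lt_two_pow (Nat.pow_lt_pow_right (by norm_num) (Nat.mod_lt _ (by norm_num)))
    (Nat.pow_lt_pow_right (by norm_num) (by omega))

theorem card_mask2 {c : ℕ} (hc : c < 576) (hs : sorted2 c = true) : (fsOf (mask2 c)).card = 2 := by
  rw [sorted2_iff] at hs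
  rw [setOf_mask2 hc]
  have h1 : c % 24 < 24 := Nat.mod_lt _ (by norm_num)
  have h3 : c / 24 < 24 := by omega
  apply Finset.card_eq_two.mpr
  refine ⟨_, _, ?_, rfl⟩
  intro h; have := pt_inj h1 h3 h; omega

theorem pcF_mask2 {c : ℕ} (hc : c < 576) (hs : sorted2 c = true) : pcF (mask2 c) = 2 := by
  rw [← card_setOf_F, card_mask2 hc hs]

theorem exists_code2 (U : Finset GolayPt) (hU : U.card = 2) :
    ∃ c < 576, sorted2 c = true ∧ fsOf (mask2 c) = U := by
  obtain ⟨x, y, hxy, rfl⟩ := Finset.card_eq_two.mp hU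
  have key : ∀ i j : ℕ, i < j → j < 24 →
      ∃ c < 576, sorted2 c = true ∧ fsOf (mask2 c) = {pt i, pt j} := by
    intro i j hij hj
    have h1 : (i + 24 * j) % 24 = i := by omega
    have h2 : (i + 24 * j) / 24 = j := by omega
    refine ⟨i + 24 * j, by omega, ?_, ?_⟩
    · rw [sorted2_iff, h1, h2]
      exact hij
    · rw [setOf_mask2 (by omega), h1, h2]
  have hxy' : idx x ≠ idx y := fun h => hxy (idx_injective h)
  rcases Nat.lt_or_gt_of_ne hxy' with h1 | h1
  · obtain ⟨n, hn, hs, hf⟩ := key (idx x) (idx y) h1 (idx_lt y)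
    rw [pt_idx, pt_idx] at hf
    exact ⟨n, hn, hs, hf⟩
  · obtain ⟨n, hn, hs, hf⟩ := key (idx y) (idx x) h1 (idx_lt x)
    rw [pt_idx, pt_idx, Finset.pair_comm] at hf
    exact ⟨n, hn, hs, hf⟩

theorem code2_inj {c d : ℕ} (hc : c < 576) (hd : d < 576) (sc : sorted2 c = true)
    (sd : sorted2 d = true) (h : fsOf (mask2 c) = fsOf (mask2 d)) : c = d := by
  rw [setOf_mask2 hc, setOf_mask2 hd] at h
  rw [sorted2_iff] at sc sd
  have a1 : c % 24 < 24 := Nat.mod_lt _ (by norm_num)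
  have a3 : c / 24 < 24 := by omega
  have b1 : d % 24 < 24 := Nat.mod_lt _ (by norm_num)
  have b3 : d / 24 < 24 := by omega
  have m : ∀ i i1 i2 : ℕ, i < 24 → i1 < 24 → i2 < 24 →
      pt i ∈ ({pt i1, pt i2} : Finset GolayPt) → i = i1 ∨ i = i2 := by
    intro i i1 i2 hi h1 h2 hm
    simp only [Finset.mem_insert, Finset.mem_singleton] at hm
    rcases hm with e | e
    · exact Or.inl (pt_inj hi h1 e)
    · exact Or.inr (pt_inj hi h2 e)
  have e1 := m _ _ _ a1 b1 b3 (h ▸ by simp)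
  have e3 := m _ _ _ a3 b1 b3 (h ▸ by simp)
  have f1 := m _ _ _ b1 a1 a3 (h.symm ▸ by simp)
  have f3 := m _ _ _ b3 a1 a3 (h.symm ▸ by simp)
  omega

theorem ncard_two (Q : Finset GolayPt → Prop) (q : ℕ → Bool)
    (hq : ∀ c < 576, sorted2 c = true → (Q (fsOf (mask2 c)) ↔ q c = true)) :
    {U : Finset GolayPt | U.card = 2 ∧ Q U}.ncard = countB 576 (fun c => sorted2 c && q c) := by
  have h1 : {U : Finset GolayPt | U.card = 2 ∧ Q U} = (fun c => fsOf (mask2 c)) ''
      (((Finset.range 576).filter (fun c => (sorted2 c && q c) = true) : Finset ℕ) : Set ℕ) := by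
    ext s
    simp only [Set.mem_setOf_eq, Set.mem_image, Finset.coe_filter, Finset.mem_range,
      Bool.and_eq_true]
    constructor
    · rintro ⟨hs, hQ⟩
      obtain ⟨c, hc, hsc, rfl⟩ := exists_code2 s hs
      exact ⟨c, ⟨hc, hsc, (hq c hc hsc).mp hQ⟩, rfl⟩
    · rintro ⟨c, ⟨hc, hsc, hqc⟩, rfl⟩
      exact ⟨card_mask2 hc hsc, (hq c hc hsc).mpr hqc⟩
  rw [h1, Set.ncard_image_of_injOn, Set.ncard_coe_finset, countB_eq]
  intro c hc d hd h
  simp only [Finset.coe_filter, Finset.mem_range, Set.mem_setOf_eq, Bool.and_eq_true] at hc hd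
  exact code2_inj hc.1 hd.1 hc.2.1 hd.2.1 h

end Cfsg.Agent.Lib.Helper27.Sub3
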