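import Mathlib
import Cfsg.Agent.Lib.Helper40.GFStmt
import Cfsg.Agent.Lib.Helper40.KStr

set_option autoImplicit false

/-!
S5886, piece K2B: `[L : F] ≥ 3`; from the rank-one differences in `Σ` a special transvection.
-/

namespace Cfsg.Agent.Lib.Helper27.GFK2B

open Cfsg.Agent.Lib.Helper40.GFStmt

universe u

theorem main : K2B.{u} := by
  intro F L _ _ _ _ k c hr h3 τ hτ v ψ e b hv hψ hψv he hb hbe H
  -- `d` with `b (d * e) ≠ 0`
  obtain ⟨y, hy⟩ : ∃ y, b y ≠ 0 := by
    by_contra hcon
    push_neg at hcon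
    exact hb (LinearMap.ext hcon)
  obtain ⟨d, hbd⟩ : ∃ d : L, b (d * e) ≠ 0 := by
    refine ⟨y / e, ?_⟩
    rw [div_mul_cancel₀ _ he]
    exact hy
  -- `d' ∉ F` with `b (d' * e) = 0`
  obtain ⟨d', hd'0, hd'F⟩ : ∃ d' : L, b (d' * e) = 0 ∧ ∀ s : F, algebraMap F L s ≠ d' := by
    have h1 : Module.finrank F (LinearMap.range (b ∘ₗ LinearMap.mulRight F e)) ≤ 1 := by
      have := Submodule.finrank_le (LinearMap.range (b ∘ₗ LinearMap.mulRight F e))
      rwa [Module.finrank_self] at this
    have h2 := LinearMap.finrank_range_add_finrank_ker (b ∘ₗ LinearMap.mulRight F e)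
    by_contra hcon
    push_neg at hcon
    have hle : LinearMap.ker (b ∘ₗ LinearMap.mulRight F e) ≤ Submodule.span F {(1 : L)} := by
      intro a ha
      have ha' : b (a * e) = 0 := by
        have := LinearMap.mem_ker.mp ha
        simpa using this
      obtain ⟨s, hs⟩ := hcon a ha'
      rw [Submodule.mem_span_singleton]
      exact ⟨s, by rw [← hs, Algebra.smul_def, mul_one]⟩
    have h4 := Submodule.finrank_mono hle
    have h5 : Module.finrank F (Submodule.span F {(1 : L)}) = 1 :=
      finrank_span_singleton one_ne_zero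
    omega
  have A1 : InSig c v ψ (rk1 b e (d * d') -
      rk1 b ((d * d' + algebraMap F L (b (d * d' * e))) * e) 1) := by
    have := H 1 (d * d') 1
    simpa only [one_mul, mul_one] using this
  have A2 : InSig c v ψ (rk1 b e (d * d') -
      rk1 b ((d + algebraMap F L (b (d * e))) * e) d') := by
    have := H 1 d d'
    simpa only [one_mul, mul_one] using this
  have A3 : InSig c v ψ (rk1 b ((d + algebraMap F L (b (d * e))) * e) d' -
      rk1 b ((d + algebraMap F L (b (d * e))) * d' * e) 1) := by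
    have := H (d + algebraMap F L (b (d * e))) d' 1
    simpa only [one_mul, mul_one, hd'0, map_zero, add_zero] using this
  have A := inSig_sub c v ψ hψv (inSig_add c v ψ hψv A2 A3) A1
  have hν : (rk1 b e (d * d') - rk1 b ((d + algebraMap F L (b (d * e))) * e) d') +
      (rk1 b ((d + algebraMap F L (b (d * e))) * e) d' -
        rk1 b ((d + algebraMap F L (b (d * e))) * d' * e) 1) -
      (rk1 b e (d * d') - rk1 b ((d * d' + algebraMap F L (b (d * d' * e))) * e) 1) =
      rk1 b ((algebraMap F L (b (d * d' * e)) - d' * algebraMap F L (b (d * e))) * e) 1 := by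
    apply LinearMap.ext
    intro x
    simp only [LinearMap.sub_apply, LinearMap.add_apply, rk1_apply, one_mul, Algebra.smul_def]
    ring
  rw [hν] at A
  have hδ : algebraMap F L (b (d * d' * e)) - d' * algebraMap F L (b (d * e)) ≠ 0 := by
    intro h0
    have hne : algebraMap F L (b (d * e)) ≠ 0 := (map_ne_zero _).mpr hbd
    apply hd'F (b (d * d' * e) / b (d * e))
    rw [map_div₀, div_eq_iff hne]
    exact sub_eq_zero.mp h0
  obtain ⟨u, huM, hux⟩ := A
  obtain ⟨cb, hcb⟩ := Cfsg.Agent.Lib.Helper40.KStr.exists_rep τ hτ b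
  have hcb0 : cb ≠ 0 := by
    rintro rfl
    apply hb
    apply LinearMap.ext
    intro a
    rw [hcb a, mul_zero, map_zero]
    rfl
  refine ⟨u, huM, ((algebraMap F L (b (d * d' * e)) - d' * algebraMap F L (b (d * e))) * e) • v,
    cb • ψ, smul_ne_zero (mul_ne_zero hδ he) hv, smul_ne_zero hcb0 hψ, ?_, ?_⟩
  · rw [LinearMap.smul_apply, map_smul, hψv, smul_zero, smul_zero]
  · intro x
    rw [hux x, rk1_apply, one_mul, hcb (ψ x), LinearMap.smul_apply, smul_eq_mul,
      mul_comm cb (ψ x), smul_assoc]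

end Cfsg.Agent.Lib.Helper27.GFK2B
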