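import Mathlib
import Cfsg.Prelude.Def_Sporadic_a
import Cfsg.Agent.Lib.Helper27.SlpLib
import Cfsg.Agent.Lib.Helper27.Chunk
import Cfsg.Agent.Lib.Helper27.CertBase
import Cfsg.Agent.Lib.Helper27.CzData
import Cfsg.Agent.Lib.Helper27.OzChk
import Cfsg.Agent.Lib.Helper27.JzDat0

/-!
The kernel tests on the data for the element of order five: the packed matrices are
automorphisms of the lattice, the listed products hold, and the four automorphisms `a`, `x`,
`y`, `t1` have the given matrices on the basis roots.
-/

set_option autoImplicit false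
set_option maxRecDepth 1000000

namespace Cfsg.Agent.Lib.Helper27.JzData

open Cfsg Cfsg.Agent.Lib.Helper27.Bits Cfsg.Agent.Lib.Helper27.Pk
open Cfsg.Agent.Lib.Helper27.MinTab Cfsg.Agent.Lib.Helper27.MinEnum Cfsg.Agent.Lib.Helper27.MinFast
open Cfsg.Agent.Lib.Helper27.MinAll Cfsg.Agent.Lib.Helper27.LDot Cfsg.Agent.Lib.Helper27.LMat
open Cfsg.Agent.Lib.Helper27.Spread Cfsg.Agent.Lib.Helper27.Co0Act Cfsg.Agent.Lib.Helper27.LApp
open Cfsg.Agent.Lib.Helper27.OrbCert Cfsg.Agent.Lib.Helper27.Chunk Cfsg.Agent.Lib.Helper27.CoGlue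
open Cfsg.Agent.Lib.Helper27.Invol Cfsg.Agent.Lib.Helper27.SlpLib Cfsg.Agent.Lib.Helper27.CertBase
open Cfsg.Agent.Lib.Helper27.CzDat0 Cfsg.Agent.Lib.Helper27.CzChk
open Cfsg.Agent.Lib.Helper27.OzDat0 Cfsg.Agent.Lib.Helper27.OzChk
open Cfsg.Agent.Lib.Helper27.JzDat0

theorem cJA : matChk nJA.1 nJA.2 = true := by decide +kernel

theorem cJA2 : matChk nJA2.1 nJA2.2 = true := by decide +kernel

theorem cJA4 : matChk nJA4.1 nJA4.2 = true := by decide +kernel

theorem cJAT : matChk nJAT.1 nJAT.2 = true := by decide +kernel

theorem cJX : matChk nJX.1 nJX.2 = true := by decide +kernel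

theorem cJXA : matChk nJXA.1 nJXA.2 = true := by decide +kernel

theorem cJXT : matChk nJXT.1 nJXT.2 = true := by decide +kernel

theorem cJY : matChk nJY.1 nJY.2 = true := by decide +kernel

theorem cJYA : matChk nJYA.1 nJYA.2 = true := by decide +kernel

theorem cJYT : matChk nJYT.1 nJYT.2 = true := by decide +kernel

theorem cJG : matChk nJG.1 nJG.2 = true := by decide +kernel

theorem cJGA : matChk nJGA.1 nJGA.2 = true := by decide +kernel

theorem cJH : matChk nJH.1 nJH.2 = true := by decide +kernel

theorem cJHA : matChk nJHA.1 nJHA.2 = true := by decide +kernel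

theorem cJHT : matChk nJHT.1 nJHT.2 = true := by decide +kernel

theorem cJT1 : matChk nJT1.1 nJT1.2 = true := by decide +kernel

theorem cJGT : matChk nJGT.1 nJGT.2 = true := by decide +kernel

theorem cJT1T : matChk nJT1T.1 nJT1T.2 = true := by decide +kernel

theorem cJT2 : matChk nJT2.1 nJT2.2 = true := by decide +kernel

theorem cJHT1 : matChk nJHT1.1 nJHT1.2 = true := by decide +kernel

theorem cJP : matChk nJP.1 nJP.2 = true := by decide +kernel

theorem p_A_A : prodOK nJA nJA nJA2 = true := by decide +kernel

theorem p_A2_A2 : prodOK nJA2 nJA2 nJA4 = true := by decide +kernel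

theorem p_A4_A : prodOK nJA4 nJA nI = true := by decide +kernel

theorem p_A_T : prodOK nJA nT nJAT = true := by decide +kernel

theorem p_T_A : prodOK nT nJA nJAT = true := by decide +kernel

theorem p_X_A : prodOK nJX nJA nJXA = true := by decide +kernel

theorem p_A_X : prodOK nJA nJX nJXA = true := by decide +kernel

theorem p_X_T : prodOK nJX nT nJXT = true := by decide +kernel

theorem p_T_X : prodOK nT nJX nJXT = true := by decide +kernel

theorem p_Y_A : prodOK nJY nJA nJYA = true := by decide +kernel

theorem p_A_Y : prodOK nJA nJY nJYA = true := by decide +kernel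

theorem p_Y_T : prodOK nJY nT nJYT = true := by decide +kernel

theorem p_T_Y : prodOK nT nJY nJYT = true := by decide +kernel

theorem p_G_A : prodOK nJG nJA nJGA = true := by decide +kernel

theorem p_A_G : prodOK nJA nJG nJGA = true := by decide +kernel

theorem p_H_A : prodOK nJH nJA nJHA = true := by decide +kernel

theorem p_A_H : prodOK nJA nJH nJHA = true := by decide +kernel

theorem p_H_T : prodOK nJH nT nJHT = true := by decide +kernel

theorem p_T_H : prodOK nT nJH nJHT = true := by decide +kernel

theorem p_G_T : prodOK nJG nT nJGT = true := by decide +kernel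

theorem p_T1_G : prodOK nJT1 nJG nJGT = true := by decide +kernel

theorem p_T1_T : prodOK nJT1 nT nJT1T = true := by decide +kernel

theorem p_T_T1 : prodOK nT nJT1 nJT1T = true := by decide +kernel

theorem p_H_T1 : prodOK nJH nJT1 nJHT1 = true := by decide +kernel

theorem p_T2_H : prodOK nJT2 nJH nJHT1 = true := by decide +kernel

theorem p_T1_T2 : prodOK nJT1 nJT2 nJP = true := by decide +kernel

theorem p_P_P : prodOK nJP nJP nT = true := by decide +kernel

theorem goA : genOK8 nJA imJA gcJA = true := by decide +kernel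

theorem goX : genOK8 nJX imJX gcJX = true := by decide +kernel

theorem goY : genOK8 nJY imJY gcJY = true := by decide +kernel

theorem goT1 : genOK8 nJT1 imJT1 gcJT1 = true := by decide +kernel

end Cfsg.Agent.Lib.Helper27.JzData
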