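import Mathlib
import Cfsg.Prelude.Def_Spor_Conway
import Cfsg.Prelude.Def_Transfer
import Cfsg.Agent.Lib.Helper27.OzMain
import Cfsg.Agent.Lib.Helper27.JzData
import Cfsg.Agent.Lib.Helper27.JzStmt

/-!
The concrete side of the Hall–Janko section of the automorphism group of the Leech lattice: an
element `ja` of order five commuting with the sign change outside an octad, whose image under
the homomorphism to the orthogonal group of dimension 8 is the matrix of code `acode`, two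
automorphisms commuting with it and the sign change with the matrices of codes `xcode`, `ycode`,
and an automorphism commuting with `ja` that conjugates the sign change to another element of
the kernel, with the relation needed for the fusion argument.
-/

set_option autoImplicit false
set_option maxRecDepth 100000

namespace Cfsg.Agent.Lib.Helper27.JzMain

open Cfsg Cfsg.Agent.Lib.Helper27.Bits Cfsg.Agent.Lib.Helper27.Pk
open Cfsg.Agent.Lib.Helper27.MinTab Cfsg.Agent.Lib.Helper27.MinEnum Cfsg.Agent.Lib.Helper27.MinFast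
open Cfsg.Agent.Lib.Helper27.MinAll Cfsg.Agent.Lib.Helper27.LDot Cfsg.Agent.Lib.Helper27.LMat
open Cfsg.Agent.Lib.Helper27.Spread Cfsg.Agent.Lib.Helper27.Co0Act Cfsg.Agent.Lib.Helper27.LApp
open Cfsg.Agent.Lib.Helper27.OrbCert Cfsg.Agent.Lib.Helper27.Chunk Cfsg.Agent.Lib.Helper27.CoGlue
open Cfsg.Agent.Lib.Helper27.Invol Cfsg.Agent.Lib.Helper27.SlpLib Cfsg.Agent.Lib.Helper27.CertBase
open Cfsg.Agent.Lib.Helper27.CzDat0 Cfsg.Agent.Lib.Helper27.CzChk Cfsg.Agent.Lib.Helper27.CzData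
open Cfsg.Agent.Lib.Helper27.OzDat0 Cfsg.Agent.Lib.Helper27.OzChk Cfsg.Agent.Lib.Helper27.OzData
open Cfsg.Agent.Lib.Helper27.CzMain Cfsg.Agent.Lib.Helper27.OzMain
open Cfsg.Agent.Lib.Helper27.JzDat0 Cfsg.Agent.Lib.Helper27.JzData
open Cfsg.Agent.Lib.Helper92.MaxMono Cfsg.Agent.Lib.Helper92.NormalMono
open Cfsg.Agent.Lib.Helper92.MinVec
open MulAction
open scoped Pointwise Matrix

/-! ### The situation of the centraliser of the sign change -/

/-- The situation `Ctx` for the sign change, with the matrix formula for the homomorphism and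
the commutator witness. -/
theorem ctx_exists (hOH : OzStmt.OHom) (hGen : OzStmt.GenO) (hF : OzStmt.OFacts)
    (hRange : OzStmt.Range) (hKer : OzStmt.Ker) (hNC : OzStmt.NonCen)
    (hStr : CzStmt.K1Str) (hXS : CzStmt.K1XS) :
    ∃ (K : Subgroup ↥Co0) (φ : Gt →* OzStmt.O8),
      OzStmt.Ctx ↥Co0 t0 Cfsg.Agent.S0398.negC K φ ∧
      (∀ g : Gt, ((φ g : Matrix.GeneralLinearGroup OzStmt.I8 (ZMod 2)) : OzStmt.M8)
          = OzStmt.pmat * Matrix.of (fun i j => BR8 (bR8 i.swap) (g • bR8 j)) * OzStmt.pinv) ∧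
      (∃ g : ↥Co0, g * t0 = t0 * g ∧ ∃ k ∈ K, ∃ k' ∈ K,
        (g * k * g⁻¹ * k⁻¹) * k' ≠ k' * (g * k * g⁻¹ * k⁻¹)) := by
  obtain ⟨K, hK, hKcard, hKx⟩ := hXS hStr
  obtain ⟨φ, hφ1, hφ2, hφ3⟩ := hOH Gt Rt8 BR8 bR8 BR8_inv hb8 hcomp8 hqr8
  -- a large image
  have hlarge : 174182400 ≤ Nat.card ↥φ.range := by
    apply hGen
    intro m hm
    have key : ∀ (gc : ℕ), (∃ g : Gt, ∀ i j : Fin 4 ⊕ Fin 4, BR8 (bR8 i.swap) (g • bR8 j)
        = if Nat.testBit gc (8 * OzStmt.enc8 i + OzStmt.enc8 j) = true then 1 else 0) →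
        OzStmt.pmat * OzStmt.matOf gc * OzStmt.pinv = OzStmt.omat m → ∃ h ∈ φ.range,
          ((h : Matrix.GeneralLinearGroup (Fin 4 ⊕ Fin 4) (ZMod 2)) :
            Matrix (Fin 4 ⊕ Fin 4) (Fin 4 ⊕ Fin 4) (ZMod 2)) = OzStmt.omat m := by
      rintro gc ⟨g, hg⟩ hgc
      refine ⟨φ g, ⟨g, rfl⟩, ?_⟩
      rw [hφ1, ← hgc]
      have e : (Matrix.of fun i j => BR8 (bR8 i.swap) (g • bR8 j)) = OzStmt.matOf gc := by
        ext i j
        rw [Matrix.of_apply, hg]
        rfl
      rw [e]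
    interval_cases m
    · exact key _ (gen_img8 cG0 cP0 pa0 pb0 im8_0 _ go8_0) om0
    · exact key _ (gen_img8 cG3 cP3 pa3 pb3 im8_1 _ go8_1) om1
    · exact key _ (gen_img8 cG9 cP9 pa9 pb9 im8_2 _ go8_2) om2
    · exact key _ (gen_img8 cH cPH paH pbH im8_3 _ go8_3) om3
  -- the kernel: squares lie in K
  have hsq : ∀ g : Gt, φ g = 1 → (g : Co0) * (g : Co0) ∈ K := by
    intro g hg
    have hpm : ∀ x : Rt8, (g • x).1 = x.1 ∨ (g • x).1 = -x.1 := by
      intro x
      obtain ⟨a, ha, rfl⟩ := rt8_surj x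
      obtain ⟨c, hc, e⟩ := rt8_surj (g • rt8 a ha)
      have hval : ∀ j < 8, b1 (bk8 j) c = b1 (bk8 j) a := by
        intro j hj
        obtain ⟨i, rfl⟩ := enc8_surj j hj
        have h1 := hφ2 g hg (rt8 a ha) i
        rw [e, BR8_bR, BR8_bR] at h1
        exact zb_inj h1
      rw [e]
      rcases (pair_spec8 pair8_ok hc ha).2.2 hval with h1 | h1
      · left
        subst h1
        rfl
      · right
        apply Subtype.ext
        rw [AddSubgroup.coe_neg]
        exact h1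
    have hroot : ∀ v : leechLattice, IsRt8 (v : GolayPt → ℤ) →
        ((g : Co0) * (g : Co0)) • v = v := by
      intro v hv
      rw [mul_smul]
      rcases hpm ⟨v, hv⟩ with h1 | h1
      · have h2 : (g : Co0) • v = v := h1
        rw [h2, h2]
      · have h2 : (g : Co0) • v = -v := h1
        rw [h2, smul_neg_l, h2, neg_neg]
    rw [hK]
    exact mono_of_fix _ (elat_fix_all8 _ hroot)
  -- K commutes with the sign change and lies in the kernel
  have hKcomm : ∀ k ∈ K, k * t0 = t0 * k := by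
    intro k hk
    obtain ⟨σ, hσ, c, hc, hfix, hsub, rfl⟩ := (hK k).mp hk
    exact mono_comm hσ hc hfix
  have hin : ∀ g : Gt, (g : Co0) ∈ K → φ g = 1 := by
    intro g hg
    obtain ⟨σ, hσ, c, hc, hfix, hsub, e⟩ := (hK (g : Co0)).mp hg
    apply hφ3
    intro i j
    have e2 : g • bR8 j = bR8 j := by
      apply Subtype.ext
      rw [smul_val8, e]
      exact mono_fix hσ hc hfix hsub _ (bR8 j).2.2
    rw [e2]
  -- the central involution
  have hnegφ : ∀ g : Gt, (g : Co0) = Cfsg.Agent.S0398.negC → φ g = 1 := by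
    intro g hg
    apply hφ3
    intro i j
    have e : (g • bR8 j).1 = -(bR8 j).1 := by
      rw [smul_val8, hg]
      exact SimpCo1.negC_smul _
    show Bf ((bR8 i).1 : GolayPt → ℤ) (((g • bR8 j).1 : leechLattice) : GolayPt → ℤ)
      = Bf ((bR8 i).1 : GolayPt → ℤ) ((bR8 j).1 : GolayPt → ℤ)
    rw [e, AddSubgroup.coe_neg]
    exact Bf_neg_of _ _ (bk8_mem _ (enc8_lt i)) (bk8_mem _ (enc8_lt j))
  have hcen := Subgroup.mem_center_iff.mp Cfsg.Agent.S0398.negC_central
  have hnn : Cfsg.Agent.S0398.negC * Cfsg.Agent.S0398.negC = 1 := by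
    apply Subtype.ext
    apply Equiv.ext
    intro x
    show Cfsg.Agent.S0398.negC • (Cfsg.Agent.S0398.negC • x) = x
    rw [SimpCo1.negC_smul, SimpCo1.negC_smul, neg_neg]
  have hnK : Cfsg.Agent.S0398.negC ∉ K := by
    intro hmem
    obtain ⟨σ, hσ, c, hc, hfix, hsub, e⟩ := (hK _).mp hmem
    have h1 := mono_fix hσ hc hfix hsub Cfsg.Spor.leechU D_U
    rw [← e, SimpCo1.negC_smul] at h1
    have h2 := congrFun (congrArg Subtype.val h1) none
    rw [AddSubgroup.coe_neg, Pi.neg_apply] at h2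
    have h3 : (Cfsg.Spor.leechU : GolayPt → ℤ) none = 4 := by
      show Cfsg.Spor.vecU none = 4
      decide
    rw [h3] at h2
    omega
  have h23 : ¬ 2 ^ 23 ∣ Nat.card ↥Co0 := by
    rw [Cfsg.Agent.S0397.result]
    norm_num
  obtain ⟨hrange, hker⟩ := hKer hRange hF ↥Co0 t0 Cfsg.Agent.S0398.negC K φ hKcard hnK hnn
    (fun x => (hcen x).symm) hKcomm hlarge hsq hin hnegφ h23
  -- the situation
  have ht0K : t0 ∈ K := by
    rw [hK]
    refine ⟨1, Subgroup.one_mem _, CzStmt.Dset, CzStmt.hD, fun p _ => rfl, subset_rfl, rfl⟩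
  have hKnorm : ∀ g : ↥Co0, g * t0 = t0 * g → ∀ k ∈ K, g * k * g⁻¹ ∈ K := by
    intro g hg k hk
    obtain ⟨σ, hσ, c, hc, hfix, hsub, rfl⟩ := (hK k).mp hk
    rw [hK]
    apply mono_of_fix
    intro p hp
    have hginv : g⁻¹ * t0 = t0 * g⁻¹ := by
      have : g⁻¹ * (g * t0) * g⁻¹ = g⁻¹ * (t0 * g) * g⁻¹ := by rw [hg]
      simpa [mul_assoc] using this.symm
    have h1 : ∀ q ∈ CzStmt.Dset,
        ((g⁻¹ • Cfsg.Agent.S5546.elat p : leechLattice) : GolayPt → ℤ) q = 0 := by
      apply supp_of_fix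
      rw [← mul_smul, ← hginv, mul_smul, t0_fix _ (elat_D p hp)]
    rw [mul_smul, mul_smul, mono_fix hσ hc hfix hsub _ h1, ← mul_smul, mul_inv_cancel, one_smul]
  have ctx : OzStmt.Ctx ↥Co0 t0 Cfsg.Agent.S0398.negC K φ :=
    { center := fun x => ⟨SimpCo1.center_cases x, fun h => by
        rcases h with rfl | rfl
        · exact Subgroup.one_mem _
        · exact Cfsg.Agent.S0398.negC_central⟩
      n_ne := fun h => Cfsg.Agent.S0398.negC_ne_one h.symm
      t_sq := t0_sq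
      t_ne := t0_ne
      not_conj := not_conj
      xs := hKx
      card_K := hKcard
      t_mem := ht0K
      n_not_mem := hnK
      K_comm := hKcomm
      K_normal := hKnorm
      range := hrange
      ker := hker }
  -- the witnesses
  exact ⟨K, φ, ctx, hφ1, hNC hStr K hK⟩

/-! ### Matrices of explicit automorphisms -/

/-- An automorphism passing the tests, as an element of the centraliser, has the matrix of the
given code on the basis roots. -/
theorem gen_mat8 {N : ℕ × ℕ} (cN : matChk N.1 N.2 = true) (hc : elt N cN * t0 = t0 * elt N cN)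
    (G : ℕ → ℕ) (gc : ℕ) (go : genOK8 N G gc = true) (i j : Fin 4 ⊕ Fin 4) :
    BR8 (bR8 i.swap) (mkG (elt N cN) hc • bR8 j)
      = if Nat.testBit gc (8 * OzStmt.enc8 i + OzStmt.enc8 j) = true then 1 else 0 := by
  obtain ⟨hG, happ, hbit⟩ := gen_spec8 go (enc8_lt i) (enc8_lt j)
  have e : mkG (elt N cN) hc • bR8 j = rt8 (G (OzStmt.enc8 j)) hG := by
    apply Subtype.ext
    apply Subtype.ext
    rw [smul_val8, mkG_val]
    exact elt_app cN (rl_spec8 rl8_ok (bk8_mem _ (enc8_lt j))).2.2.1 (rl_spec8 rl8_ok hG).2.2.1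
      happ (bR8 j).1 rfl
  rw [e, BR8_bR, enc8_swap, hbit]
  rfl

/-- The matrix of the image of an automorphism passing the tests. -/
theorem phi_mat {φ : Gt →* OzStmt.O8}
    (hφ1 : ∀ g : Gt, ((φ g : Matrix.GeneralLinearGroup OzStmt.I8 (ZMod 2)) : OzStmt.M8)
      = OzStmt.pmat * Matrix.of (fun i j => BR8 (bR8 i.swap) (g • bR8 j)) * OzStmt.pinv)
    {N : ℕ × ℕ} (cN : matChk N.1 N.2 = true) (hc : elt N cN * t0 = t0 * elt N cN)
    (G : ℕ → ℕ) (gc : ℕ) (go : genOK8 N G gc = true) :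
    ((φ (mkG (elt N cN) hc) : Matrix.GeneralLinearGroup OzStmt.I8 (ZMod 2)) : OzStmt.M8)
      = OzStmt.pmat * OzStmt.matOf gc * OzStmt.pinv := by
  rw [hφ1]
  have e : (Matrix.of fun i j => BR8 (bR8 i.swap) (mkG (elt N cN) hc • bR8 j))
      = OzStmt.matOf gc := by
    ext i j
    rw [Matrix.of_apply, gen_mat8 cN hc G gc go]
    rfl
  rw [e]

theorem codeA : OzStmt.pmat * OzStmt.matOf gcJA * OzStmt.pinv = OzStmt.matOf JzStmt.acode := by
  decide +kernel

theorem codeX : OzStmt.pmat * OzStmt.matOf gcJX * OzStmt.pinv = OzStmt.matOf JzStmt.xcode := by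
  decide +kernel

theorem codeY : OzStmt.pmat * OzStmt.matOf gcJY * OzStmt.pinv = OzStmt.matOf JzStmt.ycode := by
  decide +kernel

theorem codeT1 : OzStmt.pmat * OzStmt.matOf gcJT1 * OzStmt.pinv = 1 := by
  decide +kernel

theorem acode_ne : (1 : OzStmt.M8) ≠ OzStmt.matOf JzStmt.acode := by
  decide +kernel

/-! ### The elements -/

/-- the element of order five -/
noncomputable def ja : Co0 := elt nJA cJA

/-- two automorphisms commuting with it and the sign change -/
noncomputable def jx : Co0 := elt nJX cJX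

/-- second automorphism -/
noncomputable def jy : Co0 := elt nJY cJY

/-- an automorphism commuting with the element of order five -/
noncomputable def jg : Co0 := elt nJG cJG

/-- an automorphism commuting with the element of order five and the sign change -/
noncomputable def jh : Co0 := elt nJH cJH

/-- the conjugate of the sign change by `jg` -/
noncomputable def jt1 : Co0 := elt nJT1 cJT1

theorem comm_of {A B P : ℕ × ℕ} (cA : matChk A.1 A.2 = true) (cB : matChk B.1 B.2 = true)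
    (cP : matChk P.1 P.2 = true) (h1 : prodOK A B P = true) (h2 : prodOK B A P = true) :
    elt A cA * elt B cB = elt B cB * elt A cA :=
  (elt_mul cA cB cP h1).trans (elt_mul cB cA cP h2).symm

theorem ja_t : ja * t0 = t0 * ja := by
  rw [t0_eq]
  exact comm_of cJA cT cJAT p_A_T p_T_A

theorem jx_t : jx * t0 = t0 * jx := by
  rw [t0_eq]
  exact comm_of cJX cT cJXT p_X_T p_T_X

theorem jy_t : jy * t0 = t0 * jy := by
  rw [t0_eq]
  exact comm_of cJY cT cJYT p_Y_T p_T_Y

theorem jh_t : jh * t0 = t0 * jh := by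
  rw [t0_eq]
  exact comm_of cJH cT cJHT p_H_T p_T_H

theorem jt1_t : jt1 * t0 = t0 * jt1 := by
  rw [t0_eq]
  exact comm_of cJT1 cT cJT1T p_T1_T p_T_T1

theorem jx_a : jx * ja = ja * jx := comm_of cJX cJA cJXA p_X_A p_A_X

theorem jy_a : jy * ja = ja * jy := comm_of cJY cJA cJYA p_Y_A p_A_Y

theorem jg_a : jg * ja = ja * jg := comm_of cJG cJA cJGA p_G_A p_A_G

theorem jh_a : jh * ja = ja * jh := comm_of cJH cJA cJHA p_H_A p_A_H

theorem ja5 : ja ^ 5 = 1 := by
  have h2 : ja * ja = elt nJA2 cJA2 := elt_mul cJA cJA cJA2 p_A_A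
  have h4 : elt nJA2 cJA2 * elt nJA2 cJA2 = elt nJA4 cJA4 := elt_mul cJA2 cJA2 cJA4 p_A2_A2
  have h5 : elt nJA4 cJA4 * ja = 1 := elt_mul_one cJA4 cJA p_A4_A
  calc ja ^ 5 = ((ja * ja) * (ja * ja)) * ja := by
        simp only [pow_succ, pow_zero, one_mul, mul_assoc]
    _ = 1 := by rw [h2, h4, h5]

theorem jg_conj : jg * t0 * jg⁻¹ = jt1 := by
  have h : jg * t0 = jt1 * jg := by
    rw [t0_eq]
    exact (elt_mul cJG cT cJGT p_G_T).trans (elt_mul cJT1 cJG cJGT p_T1_G).symm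
  rw [h, mul_inv_cancel_right]

theorem jh_conj : jh * jt1 * jh⁻¹ = elt nJT2 cJT2 := by
  have h : jh * jt1 = elt nJT2 cJT2 * jh :=
    (elt_mul cJH cJT1 cJHT1 p_H_T1).trans (elt_mul cJT2 cJH cJHT1 p_T2_H).symm
  rw [h, mul_inv_cancel_right]

theorem jrel : (jt1 * elt nJT2 cJT2) * (jt1 * elt nJT2 cJT2) = t0 := by
  have h1 : jt1 * elt nJT2 cJT2 = elt nJP cJP := elt_mul cJT1 cJT2 cJP p_T1_T2
  rw [h1, t0_eq]
  exact elt_mul cJP cJP cT p_P_P

/-! ### The facts -/

/-- The facts about the element of order five. -/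
theorem jdata (hOH : OzStmt.OHom) (hGen : OzStmt.GenO) (hF : OzStmt.OFacts)
    (hRange : OzStmt.Range) (hKer : OzStmt.Ker) (hNC : OzStmt.NonCen)
    (hStr : CzStmt.K1Str) (hXS : CzStmt.K1XS) :
    ∃ (K : Subgroup ↥Co0) (φ : Gt →* OzStmt.O8),
      JzStmt.JData ↥Co0 t0 Cfsg.Agent.S0398.negC ja K φ := by
  obtain ⟨K, φ, ctx, hφ1, hnc⟩ := ctx_exists hOH hGen hF hRange hKer hNC hStr hXS
  have hA : ((φ (mkG ja ja_t) : Matrix.GeneralLinearGroup OzStmt.I8 (ZMod 2)) : OzStmt.M8)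
      = OzStmt.matOf JzStmt.acode := by
    rw [← codeA]
    exact phi_mat hφ1 cJA ja_t imJA gcJA goA
  have hX : ((φ (mkG jx jx_t) : Matrix.GeneralLinearGroup OzStmt.I8 (ZMod 2)) : OzStmt.M8)
      = OzStmt.matOf JzStmt.xcode := by
    rw [← codeX]
    exact phi_mat hφ1 cJX jx_t imJX gcJX goX
  have hY : ((φ (mkG jy jy_t) : Matrix.GeneralLinearGroup OzStmt.I8 (ZMod 2)) : OzStmt.M8)
      = OzStmt.matOf JzStmt.ycode := by
    rw [← codeY]
    exact phi_mat hφ1 cJY jy_t imJY gcJY goY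
  have hT1 : φ (mkG jt1 jt1_t) = 1 := by
    apply Subtype.ext
    apply Units.ext
    have h := phi_mat hφ1 cJT1 jt1_t imJT1 gcJT1 goT1
    rw [codeT1] at h
    exact h
  refine ⟨K, φ, ?_⟩
  refine
    { ctx := ctx
      nc := hnc
      a5 := ja5
      a1 := ?_
      a_t := ja_t
      am := ⟨mkG ja ja_t, rfl, hA⟩
      xm := ⟨mkG jx jx_t, jx_a, hX⟩
      ym := ⟨mkG jy jy_t, jy_a, hY⟩
      fus := ⟨jg, jh, jg_a, jh_a, jh_t, ⟨mkG jt1 jt1_t, jg_conj.symm, hT1⟩, ?_⟩ }
  · intro h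
    have h1 : mkG ja ja_t = 1 := Subtype.ext h
    rw [h1, map_one] at hA
    exact acode_ne hA
  · rw [jg_conj, jh_conj]
    exact jrel

end Cfsg.Agent.Lib.Helper27.JzMain
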